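import Mathlib
import Cfsg.Agent.Lib.Helper70.HH.S3789Defs

/-!
# S3789, package (P3) `LemD` (helper6)

The elements of `Q` that are central modulo the kernel of `Q` on `W` form a proper `B`-invariant
subgroup of `Q`; it is centralized by `z`, hence lies in `Φ(Q)`.
-/

set_option autoImplicit false

namespace Cfsg.Agent.Lib.Helper6.HH89

open Cfsg.Agent.Lib.Helper70.HH89

universe u v w

theorem lemD : LemD.{u, v, w} := by
  intro F _ H _ V _ _ ρ B Q z W hBQ hmin hfpf hQW hBW hnc g hg hgD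
  -- `ρ x` maps `W` into `W`
  have hW : ∀ x ∈ Q, ∀ w ∈ W, ρ x w ∈ W := fun x hx w hw =>
    hQW x hx (Submodule.mem_map_of_mem hw)
  have hWB : ∀ b ∈ B, ∀ w ∈ W, ρ b w ∈ W := fun b hb w hw =>
    hBW b hb (Submodule.mem_map_of_mem hw)
  have hmul : ∀ (x y : H) (w : V), ρ (x * y) w = ρ x (ρ y w) := by
    intro x y w
    rw [map_mul]
    rfl
  -- the subgroup `D`
  let D : Subgroup H :=
    { carrier := {x | x ∈ Q ∧ ∀ h ∈ Q, ∀ w ∈ W, ρ (x * h) w = ρ (h * x) w}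
      one_mem' := ⟨Q.one_mem, fun h _ w _ => by rw [one_mul, mul_one]⟩
      mul_mem' := by
        rintro x y ⟨hx, hxD⟩ ⟨hy, hyD⟩
        refine ⟨Q.mul_mem hx hy, fun h hh w hw => ?_⟩
        calc ρ (x * y * h) w = ρ x (ρ (y * h) w) := by rw [mul_assoc, hmul]
          _ = ρ x (ρ (h * y) w) := by rw [hyD h hh w hw]
          _ = ρ (x * h) (ρ y w) := by rw [hmul h y, ← hmul x h]
          _ = ρ (h * x) (ρ y w) := hxD h hh _ (hW y hy w hw)
          _ = ρ (h * (x * y)) w := by rw [← hmul, mul_assoc]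
      inv_mem' := by
        rintro x ⟨hx, hxD⟩
        refine ⟨Q.inv_mem hx, fun h hh w hw => ?_⟩
        have h1 := hxD h hh (ρ x⁻¹ w) (hW x⁻¹ (Q.inv_mem hx) w hw)
        rw [← hmul, ← hmul] at h1
        have h2 : ρ (x * h * x⁻¹) w = ρ h w := by
          rw [h1]
          congr 2
          group
        calc ρ (x⁻¹ * h) w = ρ x⁻¹ (ρ h w) := hmul _ _ _
          _ = ρ x⁻¹ (ρ (x * h * x⁻¹) w) := by rw [h2]
          _ = ρ (x⁻¹ * (x * h * x⁻¹)) w := (hmul _ _ _).symm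
          _ = ρ (h * x⁻¹) w := by
            congr 2
            group }
  have hDQ : D ≤ Q := fun x hx => hx.1
  have hDne : D ≠ Q := by
    intro hDeq
    obtain ⟨a, ha, b, hb, u, hu, hne⟩ := hnc
    have haD : a ∈ D := by rw [hDeq]; exact ha
    exact hne (haD.2 b hb u hu)
  have hDB : ∀ b ∈ B, ∀ x ∈ D, b * x * b⁻¹ ∈ D := by
    rintro b hb x ⟨hx, hxD⟩
    refine ⟨hBQ b hb x hx, fun h hh w hw => ?_⟩
    have hb' : b⁻¹ ∈ B := B.inv_mem hb
    have hh' : b⁻¹ * h * b ∈ Q := by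
      have := hBQ b⁻¹ hb' h hh
      rwa [inv_inv] at this
    have hw' : ρ b⁻¹ w ∈ W := hWB b⁻¹ hb' w hw
    have h1 := hxD (b⁻¹ * h * b) hh' (ρ b⁻¹ w) hw'
    rw [← hmul, ← hmul] at h1
    calc ρ (b * x * b⁻¹ * h) w = ρ (b * (x * (b⁻¹ * h * b) * b⁻¹)) w := by
          congr 2
          group
      _ = ρ b (ρ (x * (b⁻¹ * h * b) * b⁻¹) w) := hmul _ _ _
      _ = ρ b (ρ (b⁻¹ * h * b * x * b⁻¹) w) := by rw [h1]
      _ = ρ (b * (b⁻¹ * h * b * x * b⁻¹)) w := (hmul _ _ _).symm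
      _ = ρ (h * (b * x * b⁻¹)) w := by
          congr 2
          group
  have hgmemD : g ∈ D := ⟨hg, hgD⟩
  have hzg : z * g = g * z := hmin D hDQ hDne hDB g hgmemD
  apply hfpf g hg
  have : z * g * z⁻¹ * g⁻¹ = 1 := by
    rw [hzg]
    group
  rw [this]
  exact Subgroup.one_mem _

end Cfsg.Agent.Lib.Helper6.HH89
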