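import Mathlib
import Cfsg.Agent.Lib.Helper70.HH.S3789Defs

/-!
# S3789, package (P8) `LemFin` (helper6)

A `p`-group `B` (`p` odd) normalizing `Q` with `|Q : Φ(Q)| ≤ 4` induces an abelian group of
permutations of `Q / Φ(Q)`, so commutators of `B` act trivially on `Q / Φ(Q)`.
-/

set_option autoImplicit false

namespace Cfsg.Agent.Lib.Helper6.HH89

open Cfsg.Agent.Lib.Helper70.HH89

universe u

section

variable {H : Type u} [Group H] (B Q : Subgroup H)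

/-- conjugation by an element normalizing `Q`, as an automorphism of `Q` -/
def conjAut (hBQ : ∀ b ∈ B, ∀ g ∈ Q, b * g * b⁻¹ ∈ Q) (b : ↥B) : ↥Q ≃* ↥Q where
  toFun g := ⟨(b : H) * g * (b : H)⁻¹, hBQ b b.2 g g.2⟩
  invFun g := ⟨(b : H)⁻¹ * g * (b : H), by
    have := hBQ (b : H)⁻¹ (B.inv_mem b.2) g g.2
    rwa [inv_inv] at this⟩
  left_inv g := by
    apply Subtype.ext
    simp [mul_assoc]
  right_inv g := by
    apply Subtype.ext
    simp [mul_assoc]
  map_mul' g h := by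
    apply Subtype.ext
    simp [mul_assoc]

theorem conjAut_frattini (hBQ : ∀ b ∈ B, ∀ g ∈ Q, b * g * b⁻¹ ∈ Q) (b : ↥B) (g : ↥Q)
    (hg : g ∈ frattini ↥Q) : conjAut B Q hBQ b g ∈ frattini ↥Q := by
  have hchar : (frattini ↥Q).Characteristic := inferInstance
  have h := Subgroup.characteristic_iff_map_eq.mp hchar (conjAut B Q hBQ b)
  rw [← h]
  exact Subgroup.mem_map_of_mem _ hg

/-- the action of `B` on `Q / Φ(Q)` -/
@[instance_reducible] def actQuot (hBQ : ∀ b ∈ B, ∀ g ∈ Q, b * g * b⁻¹ ∈ Q) :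
    MulAction ↥B (↥Q ⧸ frattini ↥Q) where
  smul b := Quotient.map' (conjAut B Q hBQ b) (by
    intro g₁ g₂ h
    rw [QuotientGroup.leftRel_apply] at h ⊢
    have := conjAut_frattini B Q hBQ b _ h
    rwa [map_mul, map_inv] at this)
  one_smul x := by
    induction x using QuotientGroup.induction_on with
    | H g =>
      show (QuotientGroup.mk (conjAut B Q hBQ 1 g) : ↥Q ⧸ frattini ↥Q) = QuotientGroup.mk g
      congr 1
      apply Subtype.ext
      simp [conjAut]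
  mul_smul b₁ b₂ x := by
    induction x using QuotientGroup.induction_on with
    | H g =>
      show (QuotientGroup.mk (conjAut B Q hBQ (b₁ * b₂) g) : ↥Q ⧸ frattini ↥Q) =
        QuotientGroup.mk (conjAut B Q hBQ b₁ (conjAut B Q hBQ b₂ g))
      congr 1
      apply Subtype.ext
      simp [conjAut, mul_assoc]

end

theorem pow_dvd_24 {p k : ℕ} (hp : p.Prime) (hp2 : p ≠ 2) (h : p ^ k ∣ 24) :
    p ^ k = 1 ∨ p ^ k = 3 := by
  rcases Nat.eq_zero_or_pos k with rfl | hk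
  · left; simp
  · right
    have hp24 : p ∣ 24 := dvd_trans (dvd_pow_self p hk.ne') h
    have hp3 : p = 3 := by
      have h24 : (24 : ℕ) = 2 ^ 3 * 3 := by norm_num
      rw [h24] at hp24
      rcases (Nat.Prime.dvd_mul hp).mp hp24 with h2 | h3
      · exact absurd ((Nat.prime_dvd_prime_iff_eq hp Nat.prime_two).mp (hp.dvd_of_dvd_pow h2)) hp2
      · exact (Nat.prime_dvd_prime_iff_eq hp Nat.prime_three).mp h3
    subst hp3
    have hk1 : k ≤ 1 := by
      by_contra hk2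
      rw [not_le] at hk2
      have h9 : 3 ^ 2 ∣ 24 := dvd_trans (pow_dvd_pow 3 hk2) h
      norm_num at h9
    have : k = 1 := by omega
    subst this
    norm_num

theorem lemFin : LemFin.{u} := by
  intro p _ H _ _ B Q hp2 hB hBQ hcard a ha g hg
  classical
  let act : MulAction ↥B (↥Q ⧸ frattini ↥Q) := actQuot B Q hBQ
  -- the permutation representation
  let θ : ↥B →* Equiv.Perm (↥Q ⧸ frattini ↥Q) := MulAction.toPermHom ↥B (↥Q ⧸ frattini ↥Q)
  -- size of the quotient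
  have hfrat : Nat.card ↥(frat Q) = Nat.card ↥(frattini ↥Q) := by
    unfold frat
    exact Nat.card_congr
      ((frattini ↥Q).equivMapOfInjective Q.subtype Q.subtype_injective).symm.toEquiv
  have hX : Nat.card (↥Q ⧸ frattini ↥Q) ≤ 4 := by
    have h1 := Subgroup.card_eq_card_quotient_mul_card_subgroup (frattini ↥Q)
    rw [hfrat, h1] at hcard
    exact Nat.le_of_mul_le_mul_right hcard Nat.card_pos
  -- the image is a `p`-group of order dividing `24`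
  have hR : IsPGroup p ↥θ.range := hB.of_surjective θ.rangeRestrict θ.rangeRestrict_surjective
  obtain ⟨k, hk⟩ := IsPGroup.iff_card.mp hR
  have hdvd : Nat.card ↥θ.range ∣ 24 := by
    have h1 : Nat.card ↥θ.range ∣ Nat.card (Equiv.Perm (↥Q ⧸ frattini ↥Q)) :=
      Subgroup.card_subgroup_dvd_card _
    rw [Nat.card_perm] at h1
    have h2 : (Nat.card (↥Q ⧸ frattini ↥Q)).factorial ∣ Nat.factorial 4 :=
      Nat.factorial_dvd_factorial hX
    exact dvd_trans h1 h2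
  have hcomm : ∀ x y : ↥θ.range, x * y = y * x := by
    rw [hk] at hdvd
    rcases pow_dvd_24 (Fact.out : p.Prime) hp2 hdvd with h1 | h3
    · rw [h1] at hk
      have : Subsingleton ↥θ.range := (Nat.card_eq_one_iff_unique.mp hk).1
      intro x y
      exact Subsingleton.elim _ _
    · rw [h3] at hk
      have : Fact (Nat.Prime 3) := ⟨Nat.prime_three⟩
      have hc : IsCyclic ↥θ.range := isCyclic_of_prime_card hk
      intro x y
      exact (IsCyclic.isMulCommutative (α := ↥θ.range)).is_comm.comm x y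
  -- commutators lie in the kernel
  have hker : ⁅B, B⁆ ≤ θ.ker.map B.subtype := by
    rw [Subgroup.commutator_le]
    intro b₁ hb₁ b₂ hb₂
    refine ⟨(⟨b₁, hb₁⟩ : ↥B) * ⟨b₂, hb₂⟩ * (⟨b₁, hb₁⟩ : ↥B)⁻¹ * (⟨b₂, hb₂⟩ : ↥B)⁻¹, ?_, rfl⟩
    show θ _ = 1
    have h := hcomm ⟨θ ⟨b₁, hb₁⟩, ⟨_, rfl⟩⟩ ⟨θ ⟨b₂, hb₂⟩, ⟨_, rfl⟩⟩
    have h' : θ ⟨b₁, hb₁⟩ * θ ⟨b₂, hb₂⟩ = θ ⟨b₂, hb₂⟩ * θ ⟨b₁, hb₁⟩ := congrArg Subtype.val h
    rw [map_mul, map_mul, map_mul, map_inv, map_inv, h']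
    group
  obtain ⟨a', ha'', rfl⟩ := hker ha
  have ha' : θ a' = 1 := ha''
  have h1 : θ a' (QuotientGroup.mk (⟨g, hg⟩ : ↥Q)) = QuotientGroup.mk (⟨g, hg⟩ : ↥Q) := by
    rw [ha']; rfl
  have h2 : (QuotientGroup.mk (conjAut B Q hBQ a' ⟨g, hg⟩) : ↥Q ⧸ frattini ↥Q) =
      QuotientGroup.mk (⟨g, hg⟩ : ↥Q) := h1
  rw [QuotientGroup.eq] at h2
  -- `(a g a⁻¹)⁻¹ * g ∈ Φ(Q)`
  have h3 : conjAut B Q hBQ a' ⟨g, hg⟩ * (⟨g, hg⟩ : ↥Q)⁻¹ ∈ frattini ↥Q := by
    have hn : (frattini ↥Q).Normal := inferInstance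
    have h4 := hn.conj_mem _ ((frattini ↥Q).inv_mem h2) (conjAut B Q hBQ a' ⟨g, hg⟩)
    have e : conjAut B Q hBQ a' ⟨g, hg⟩ * ((conjAut B Q hBQ a' ⟨g, hg⟩)⁻¹ * ⟨g, hg⟩)⁻¹ *
        (conjAut B Q hBQ a' ⟨g, hg⟩)⁻¹ = conjAut B Q hBQ a' ⟨g, hg⟩ * (⟨g, hg⟩ : ↥Q)⁻¹ := by
      group
    rwa [e] at h4
  exact ⟨_, h3, rfl⟩

end Cfsg.Agent.Lib.Helper6.HH89
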